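import Cfsg.Agent.Char.Basic
import Cfsg.Agent.BlocksChar.DefectZero
import Mathlib.RingTheory.RootsOfUnity.Complex

/-!
A lower bound for the square sum of a character over the generators of a group of prime order,
from the integrality of the eigenvalue multiplicities.
-/

set_option autoImplicit false

namespace Cfsg.Agent.BlockOne

open Cfsg Finset
open scoped ComplexConjugate

theorem sum_pow_root {p : ℕ} (hp : 0 < p) {z : ℂ} (hz : z ^ p = 1) :
    ∑ i ∈ range p, z ^ i = if z = 1 then (p : ℂ) else 0 := by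
  split
  · rename_i h; simp [h]
  · rename_i h
    rw [geom_sum_eq h, hz, sub_self, zero_div]

/-- The integer inequality behind the bound. -/
theorem sq_sum_bound {ι : Type*} (s : Finset ι) (n : ι → ℕ) :
    ((∑ k ∈ s, n k) % s.card) * (s.card - (∑ k ∈ s, n k) % s.card) + (∑ k ∈ s, n k) ^ 2 ≤
      s.card * ∑ k ∈ s, n k ^ 2 := by
  rcases s.eq_empty_or_nonempty with rfl | hs
  · simp
  have hc : 0 < s.card := card_pos.2 hs
  set D := ∑ k ∈ s, n k with hD
  set p := s.card with hp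
  have hr : D % p < p := Nat.mod_lt _ hc
  have hdec : p * (D / p) + D % p = D := Nat.div_add_mod D p
  set t := D / p
  set r := D % p
  have h : (0 : ℤ) ≤ ∑ k ∈ s, ((n k : ℤ) - t) * ((n k : ℤ) - t - 1) := by
    refine sum_nonneg fun k _ => ?_
    rcases le_or_gt (n k : ℤ) t with h | h <;> nlinarith
  have e : ∑ k ∈ s, ((n k : ℤ) - t) * ((n k : ℤ) - t - 1) =
      (∑ k ∈ s, (n k : ℤ) ^ 2) - (2 * t + 1) * D + p * (t * (t + 1)) := by
    have hb : ∀ k ∈ s, ((n k : ℤ) - t) * ((n k : ℤ) - t - 1) =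
        (n k : ℤ) ^ 2 - (2 * t + 1) * (n k) + t * (t + 1) := fun k _ => by ring
    rw [sum_congr rfl hb, sum_add_distrib, sum_sub_distrib, ← mul_sum, sum_const, nsmul_eq_mul,
      ← hp, hD, Nat.cast_sum]
  rw [e] at h
  zify [hr.le]
  have hdec' : (p : ℤ) * t + r = D := by exact_mod_cast hdec
  have hp0 : (0 : ℤ) ≤ p := p.cast_nonneg
  have h2 := mul_nonneg hp0 h
  rw [← hdec'] at h2 ⊢
  nlinarith

variable {G : Type*} [Group G] [Finite G]

/-- The bound: if the values at the nontrivial powers are divisible by `q`, coprime to the order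
`p` and dividing the degree, their square sum is at least `q² r (p - r)`, `r = (d / q) mod p`. -/
theorem cyclic_bound {χ : G → ℂ} (hχ : IsCharacter G χ) {p q d : ℕ} (hp : p.Prime)
    (hd : χ 1 = d) {x : G} (hx : orderOf x = p) (hq : Nat.Coprime q p) (hqd : q ∣ d)
    (hint : ∀ i, 0 < i → i < p → ∃ t : ℂ, IsIntegral ℤ t ∧ χ (x ^ i) = q * t) :
    ((q ^ 2 * ((d / q % p) * (p - d / q % p)) : ℕ) : ℝ) ≤
      ∑ i ∈ (range p).erase 0, ‖χ (x ^ i)‖ ^ 2 := by
  classical
  obtain ⟨N, ρ, rfl⟩ := hχ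
  obtain ⟨ε, hε, hpow⟩ := Char.exists_character_eq_sum_roots ρ x
  rw [hx] at hε
  have hN : (Module.finrank ℂ (Fin N → ℂ)) = d := by
    rw [ρ.char_one] at hd
    exact_mod_cast hd
  set S : Finset ℂ := Polynomial.nthRootsFinset p (1 : ℂ) with hS
  have hSc : S.card = p := (Complex.isPrimitiveRoot_exp p hp.ne_zero).card_nthRootsFinset
  have hmem : ∀ z : ℂ, z ∈ S ↔ z ^ p = 1 := fun z => Polynomial.mem_nthRootsFinset hp.pos 1
  set m : ℂ → ℕ := fun z => (univ.filter fun a => ε a = z).card with hm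
  have hmsum : ∑ z ∈ S, m z = d := by
    rw [← card_eq_sum_card_fiberwise (fun a _ => (hmem _).2 (hε a))]
    simp [← hN]
  -- orthogonality of the powers
  have hgeo : ∀ (a : Fin _) (z : ℂ), z ^ p = 1 →
      ∑ i ∈ range p, ε a ^ i * conj z ^ i = if ε a = z then (p : ℂ) else 0 := by
    intro a z hz
    have hn : ‖z‖ = 1 := Complex.norm_eq_one_of_pow_eq_one hz hp.ne_zero
    have hz0 : z ≠ 0 := norm_ne_zero_iff.1 (hn ▸ one_ne_zero)
    rw [show conj z = z⁻¹ from (Complex.inv_eq_conj hn).symm]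
    simp only [← mul_pow]
    rw [sum_pow_root hp.pos (by rw [mul_pow, hε a, inv_pow, hz, inv_one, one_mul])]
    simp only [mul_inv_eq_one₀ hz0]
  -- divisibility of the multiplicities
  have hdiv : ∀ z ∈ S, q ∣ m z := by
    intro z hz
    have hz1 : z ^ p = 1 := (hmem z).1 hz
    have h1 : ∑ i ∈ range p, ρ.character (x ^ i) * conj z ^ i = ((p * m z : ℕ) : ℂ) := by
      simp only [hpow, sum_mul]
      rw [sum_comm, sum_congr rfl fun a _ => hgeo a z hz1, ← sum_filter, sum_const, nsmul_eq_mul,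
        Nat.cast_mul, mul_comm]
    choose t ht hval using hint
    obtain ⟨c, hc⟩ := hqd
    let u : ℕ → ℂ := fun i => if h : 0 < i ∧ i < p then t i h.1 h.2 else 0
    have h2 : ∑ i ∈ range p, ρ.character (x ^ i) * conj z ^ i =
        (q : ℂ) * (c + ∑ i ∈ (range p).erase 0, u i * conj z ^ i) := by
      rw [← add_sum_erase _ _ (mem_range.2 hp.pos), pow_zero x, hd, hc, mul_add, mul_sum]
      refine congr_arg₂ _ (by simp) (sum_congr rfl fun i hi => ?_)
      rw [mem_erase, mem_range] at hi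
      have h0 : 0 < i ∧ i < p := ⟨Nat.pos_of_ne_zero hi.1, hi.2⟩
      rw [hval i h0.1 h0.2, show u i = t i h0.1 h0.2 from dif_pos h0, mul_assoc]
    have hzint : IsIntegral ℤ (conj z) := by
      refine IsIntegral.of_pow hp.pos ?_
      rw [← map_pow, hz1, map_one]
      exact isIntegral_one
    refine hq.dvd_of_dvd_mul_left (BlocksChar.nat_dvd_of_eq_mul_integral ?_ (h1.symm.trans h2))
    refine IsIntegral.add ?_ (IsIntegral.sum _ fun i hi => ?_)
    · simpa using isIntegral_algebraMap (R := ℤ) (A := ℂ) (x := (c : ℤ))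
    · rw [mem_erase, mem_range] at hi
      have h0 : 0 < i ∧ i < p := ⟨Nat.pos_of_ne_zero hi.1, hi.2⟩
      rw [show u i = t i h0.1 h0.2 from dif_pos h0]
      exact (ht i h0.1 h0.2).mul (hzint.pow i)
  -- Parseval
  have hpar : ∑ i ∈ range p, ‖ρ.character (x ^ i)‖ ^ 2 = ((p * ∑ z ∈ S, m z ^ 2 : ℕ) : ℝ) := by
    have key : (∑ i ∈ range p, ρ.character (x ^ i) * conj (ρ.character (x ^ i)) : ℂ) =
        ((p * ∑ z ∈ S, m z ^ 2 : ℕ) : ℂ) := by
      simp only [hpow, map_sum, map_pow, sum_mul_sum]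
      rw [sum_comm]
      conv_lhs => enter [2, a]; rw [sum_comm]; enter [2, b]; rw [hgeo a _ (hε b)]
      simp only [← sum_filter, sum_const, nsmul_eq_mul]
      rw [← sum_mul, ← Nat.cast_sum,
        ← sum_fiberwise_of_maps_to (t := S) (fun a _ => (hmem _).2 (hε a))
          (fun a => (univ.filter fun b => ε a = ε b).card)]
      rw [Nat.cast_mul, mul_comm (p : ℂ)]
      congr 2
      refine sum_congr rfl fun z _ => ?_
      rw [sq]
      refine (sum_const_nat fun a ha => ?_)
      rw [hm]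
      simp only [mem_filter] at ha
      simp only [ha.2, eq_comm]
    rw [← Complex.ofReal_inj]
    push_cast
    push_cast at key
    rw [← key]
    exact sum_congr rfl fun i _ => (Complex.mul_conj' _).symm
  have hsplit := add_sum_erase (range p) (fun i => ‖ρ.character (x ^ i)‖ ^ 2) (mem_range.2 hp.pos)
  simp only [pow_zero x, hd, Complex.norm_natCast, hpar] at hsplit
  have hb := sq_sum_bound S fun z => m z / q
  have hsum : ∑ z ∈ S, m z / q = d / q := by
    rw [← Nat.sum_div hdiv, hmsum]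
  rw [hSc, hsum] at hb
  have hb' := Nat.mul_le_mul_left (q ^ 2) hb
  have hA : q ^ 2 * (p * ∑ z ∈ S, (m z / q) ^ 2) = p * ∑ z ∈ S, m z ^ 2 := by
    rw [mul_left_comm, mul_sum]
    congr 1
    exact sum_congr rfl fun z hz => by rw [← mul_pow, Nat.mul_div_cancel' (hdiv z hz)]
  have hB : q ^ 2 * (d / q) ^ 2 = d ^ 2 := by rw [← mul_pow, Nat.mul_div_cancel' hqd]
  rw [hA, mul_add, hB] at hb'
  have hb'' : ((q ^ 2 * ((d / q % p) * (p - d / q % p)) : ℕ) : ℝ) + (d : ℝ) ^ 2 ≤
      ((p * ∑ z ∈ S, m z ^ 2 : ℕ) : ℝ) := by exact_mod_cast hb'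
  linarith

/-- The sum over all powers is the order times a natural number. -/
theorem sum_powers_eq {χ : G → ℂ} (hχ : IsCharacter G χ) {p : ℕ} (hp : p.Prime) {x : G}
    (hx : orderOf x = p) :
    ∃ m : ℕ, ∑ i ∈ range p, χ (x ^ i) = (p : ℂ) * m := by
  classical
  obtain ⟨N, ρ, rfl⟩ := hχ
  obtain ⟨ε, hε, hpow⟩ := Char.exists_character_eq_sum_roots ρ x
  rw [hx] at hε
  refine ⟨(univ.filter fun a => ε a = 1).card, ?_⟩
  simp only [hpow]
  rw [sum_comm, sum_congr rfl fun a _ => sum_pow_root hp.pos (hε a), ← sum_filter, sum_const,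
    nsmul_eq_mul, mul_comm]

end Cfsg.Agent.BlockOne
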