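import Cfsg.Agent.BlockOne.NoDefectZero
import Cfsg.Agent.Golay.Mathieu

/-!
M22 and M24 have no character of 2-defect zero.
-/

set_option autoImplicit false
set_option linter.style.haveILetI false

namespace Cfsg.Agent.BlockOne

open Cfsg Finset

theorem factorization_two_m22 : (443520 : ℕ).factorization 2 = 7 := by
  rw [show (443520 : ℕ) = 2 ^ 7 * 3465 from rfl, Nat.factorization_mul (by norm_num) (by norm_num),
    Finsupp.add_apply, Nat.Prime.factorization_pow Nat.prime_two, Finsupp.single_eq_same,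
    Nat.factorization_eq_zero_of_not_dvd (by norm_num)]

theorem degree_cases {G : Type*} [Group G] [Finite G] {χ : G → ℂ} (hχ : IsIrrCharacter G χ)
    {o a : ℕ} (ho : Nat.card G = o) (h : 2 ^ a ∣ charDegree χ) :
    ∃ m : ℕ, χ 1 = ((2 ^ a * m : ℕ) : ℂ) ∧ 2 ^ a * m ∣ o ∧ (2 ^ a * m) ^ 2 ≤ o := by
  haveI := Fintype.ofFinite G
  obtain ⟨d, hd0, hd, hdvd⟩ := Char.irr_degree_dvd_card hχ
  have hdeg : charDegree χ = d := by rw [charDegree, hd, Complex.natCast_re, Nat.floor_natCast]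
  rw [hdeg] at h
  obtain ⟨m, rfl⟩ := h
  refine ⟨m, hd, ho ▸ hdvd, ?_⟩
  have hle := single_le_sum (f := fun g => ‖χ g‖ ^ 2) (fun g _ => sq_nonneg _) (mem_univ (1 : G))
  simp only [sum_norm_sq hχ, hd, Complex.norm_natCast, ho] at hle
  exact_mod_cast hle

/-- The three primes used for M22. -/
noncomputable def m22Data : List (PrimeDatum Spor.M22) :=
  [⟨5, 5, 22176, 1, by norm_num, m22_five⟩, ⟨7, 7, 21120, 1, by norm_num, m22_seven⟩,
    ⟨11, 11, 8064, 1, by norm_num, m22_eleven⟩]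

/-- The four primes used for M24. -/
noncomputable def m24Data : List (PrimeDatum Cfsg.M24) :=
  [⟨5, 60, 1020096, 4, by norm_num, m24_five⟩, ⟨7, 42, 1943040, 2, by norm_num, m24_seven⟩,
    ⟨11, 11, 2225664, 1, by norm_num, m24_eleven⟩,
    ⟨23, 23, 967680, 1, by norm_num, m24_twentyThree⟩]

theorem m22_checks : ∀ d ∈ [128, 384, 640],
    (Nat.Coprime 1 5 ∧ 1 ∣ d ∧ 1 ∣ d / Nat.gcd (443520 / 5) d ∧ 443520 % 5 ^ 2 ≠ 0 ∧
      ∀ h ∈ Nat.divisors 4, 443520 % (5 * h) = 0 → 443520 / (5 * h) % 5 = 1 →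
        443520 / (5 * h) = 22176) ∧
    (Nat.Coprime 1 7 ∧ 1 ∣ d ∧ 1 ∣ d / Nat.gcd (443520 / 7) d ∧ 443520 % 7 ^ 2 ≠ 0 ∧
      ∀ h ∈ Nat.divisors 6, 443520 % (7 * h) = 0 → 443520 / (7 * h) % 7 = 1 →
        443520 / (7 * h) = 21120) ∧
    (Nat.Coprime 1 11 ∧ 1 ∣ d ∧ 1 ∣ d / Nat.gcd (443520 / 11) d ∧ 443520 % 11 ^ 2 ≠ 0 ∧
      ∀ h ∈ Nat.divisors 10, 443520 % (11 * h) = 0 → 443520 / (11 * h) % 11 = 1 →
        443520 / (11 * h) = 8064) := by
  decide +kernel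

theorem m24_check_5 : ∀ d ∈ [1024, 3072, 5120, 7168, 9216, 11264, 15360],
    Nat.Coprime 4 5 ∧ 4 ∣ d ∧ 4 ∣ d / Nat.gcd (244823040 / 60) d ∧
      244823040 % 5 ^ 2 ≠ 0 ∧
      ∀ h ∈ Nat.divisors 4, 244823040 % (60 * h) = 0 →
        244823040 / (60 * h) % 5 = 1 → 244823040 / (60 * h) = 1020096 := by
  decide +kernel

theorem m24_check_7 : ∀ d ∈ [1024, 3072, 5120, 7168, 9216, 11264, 15360],
    Nat.Coprime 2 7 ∧ 2 ∣ d ∧ 2 ∣ d / Nat.gcd (244823040 / 42) d ∧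
      244823040 % 7 ^ 2 ≠ 0 ∧
      ∀ h ∈ Nat.divisors 6, 244823040 % (42 * h) = 0 →
        244823040 / (42 * h) % 7 = 1 → 244823040 / (42 * h) = 1943040 := by
  decide +kernel

theorem m24_check_11 : ∀ d ∈ [1024, 3072, 5120, 7168, 9216, 11264, 15360],
    Nat.Coprime 1 11 ∧ 1 ∣ d ∧ 1 ∣ d / Nat.gcd (244823040 / 11) d ∧
      244823040 % 11 ^ 2 ≠ 0 ∧
      ∀ h ∈ Nat.divisors 10, 244823040 % (11 * h) = 0 →
        244823040 / (11 * h) % 11 = 1 → 244823040 / (11 * h) = 2225664 := by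
  decide +kernel

theorem m24_check_23 : ∀ d ∈ [1024, 3072, 5120, 7168, 9216, 11264, 15360],
    Nat.Coprime 1 23 ∧ 1 ∣ d ∧ 1 ∣ d / Nat.gcd (244823040 / 23) d ∧
      244823040 % 23 ^ 2 ≠ 0 ∧
      ∀ h ∈ Nat.divisors 22, 244823040 % (23 * h) = 0 →
        244823040 / (23 * h) % 23 = 1 → 244823040 / (23 * h) = 967680 := by
  decide +kernel

theorem m22_ok {d : ℕ} (hd : d ∈ [128, 384, 640]) : ∀ D ∈ m22Data, D.OK 443520 d := by
  obtain ⟨h1, h2, h3⟩ := m22_checks d hd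
  intro D hD
  simp only [m22Data, List.mem_cons, List.not_mem_nil, or_false] at hD
  rcases hD with rfl | rfl | rfl
  exacts [h1, h2, h3]

theorem m22_degrees : ∀ m < 6, 2 ^ 7 * m ∣ 443520 → 2 ^ 7 * m ∈ [128, 384, 640] := by
  decide +kernel

theorem m24_degrees : ∀ m < 16, 2 ^ 10 * m ∣ 244823040 →
    2 ^ 10 * m ∈ [1024, 3072, 5120, 7168, 9216, 11264, 15360] := by
  decide +kernel

/-- The linear equation has no solution in the allowed range. -/
theorem no_sum_384 (a b c : ℕ) (ha : (5 * (a : ℤ) - 384) ^ 2 ≤ 4 * 4)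
    (hb : (7 * (b : ℤ) - 384) ^ 2 ≤ 6 * 6) (hc : (11 * (c : ℤ) - 384) ^ 2 ≤ 10 * 10) :
    (384 : ℤ) + 22176 * (5 * a - 384) + 21120 * (7 * b - 384) + 8064 * (11 * c - 384) ≠ 0 := by
  have h1 := abs_le_of_sq_le_sq' (show (5 * (a : ℤ) - 384) ^ 2 ≤ 4 ^ 2 by linarith) (by norm_num)
  have h2 := abs_le_of_sq_le_sq' (show (7 * (b : ℤ) - 384) ^ 2 ≤ 6 ^ 2 by linarith) (by norm_num)
  have h3 := abs_le_of_sq_le_sq' (show (11 * (c : ℤ) - 384) ^ 2 ≤ 10 ^ 2 by linarith) (by norm_num)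
  omega

theorem m22_no_defect_zero (χ : IrrCharacter Spor.M22) :
    ¬ 2 ^ (Nat.card Spor.M22).factorization 2 ∣ charDegree (χ : Spor.M22 → ℂ) := by
  classical
  haveI := Fintype.ofFinite Spor.M22
  have ho : Nat.card Spor.M22 = 443520 := Golay.card_M22
  rw [ho, factorization_two_m22]
  intro h
  obtain ⟨m, hd, hdvd, hle⟩ := degree_cases χ.2 ho h
  have hm : m < 6 := by
    by_contra hm
    have : (2 ^ 7 * 6) ^ 2 ≤ (2 ^ 7 * m) ^ 2 := Nat.pow_le_pow_left (by omega) 2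
    omega
  have hmem := m22_degrees m hm hdvd
  have hdefect : 2 ^ 7 ∣ 2 ^ 7 * m := Dvd.intro _ rfl
  generalize 2 ^ 7 * m = d at hd hmem hdefect
  have hok := m22_ok hmem
  have hnb := norm_bound ho χ.2 hd m22Data (by decide) hok
  simp only [m22Data, List.map_cons, List.map_nil, List.sum_cons, List.sum_nil,
    PrimeDatum.bound] at hnb
  simp only [List.mem_cons, List.not_mem_nil, or_false] at hmem
  rcases hmem with rfl | rfl | rfl
  · norm_num at hnb
  swap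
  · norm_num at hnb
  -- degree 384: every inequality is an equality
  obtain ⟨S5, a, hS5, hb5, hc5, hr5⟩ := (⟨5, 5, 22176, 1, by norm_num, m22_five⟩ :
    PrimeDatum Spor.M22).sum_facts ho (hok _ (by simp [m22Data])) χ.2 hd
  obtain ⟨S7, b, hS7, hb7, hc7, hr7⟩ := (⟨7, 7, 21120, 1, by norm_num, m22_seven⟩ :
    PrimeDatum Spor.M22).sum_facts ho (hok _ (by simp [m22Data])) χ.2 hd
  obtain ⟨S11, c, hS11, hb11, hc11, hr11⟩ := (⟨11, 11, 8064, 1, by norm_num, m22_eleven⟩ :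
    PrimeDatum Spor.M22).sum_facts ho (hok _ (by simp [m22Data])) χ.2 hd
  norm_num at hS5 hS7 hS11 hb5 hb7 hb11 hc5 hc7 hc11 hr5 hr7 hr11
  set U := fun p => univ.filter (fun g : Spor.M22 => orderOf g = p) with hU
  set T : Finset Spor.M22 := insert 1 (U 5 ∪ U 7 ∪ U 11) with hT
  have h1 : (1 : Spor.M22) ∉ U 5 ∪ U 7 ∪ U 11 := by simp [hU]
  have hd57 : Disjoint (U 5) (U 7) := disjoint_filter.2 fun g _ e e' => by omega
  have hd5711 : Disjoint (U 5 ∪ U 7) (U 11) := disjoint_union_left.2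
    ⟨disjoint_filter.2 fun g _ e e' => by omega, disjoint_filter.2 fun g _ e e' => by omega⟩
  have hTsum : ∀ f : Spor.M22 → ℝ, ∑ g ∈ T, f g =
      f 1 + (∑ g ∈ U 5, f g + ∑ g ∈ U 7, f g + ∑ g ∈ U 11, f g) := fun f => by
    rw [hT, sum_insert h1, sum_union hd5711, sum_union hd57]
  have hall := sum_sdiff (f := fun g => ‖(χ : Spor.M22 → ℂ) g‖ ^ 2) (subset_univ T)
  rw [sum_norm_sq χ.2, ho, hTsum] at hall
  simp only [hU, hd, hS5, hS7, hS11, Complex.norm_natCast] at hall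
  have hrest : 0 ≤ ∑ g ∈ univ \ T, ‖(χ : Spor.M22 → ℂ) g‖ ^ 2 := sum_nonneg fun g _ => sq_nonneg _
  simp only [Nat.cast_ofNat] at hall
  have hzero : ∑ g ∈ univ \ T, ‖(χ : Spor.M22 → ℂ) g‖ ^ 2 = 0 := by nlinarith
  have hvan : ∀ g ∈ univ \ T, ((χ : Spor.M22 → ℂ) g).re = 0 := fun g hg => by
    have := (sum_eq_zero_iff_of_nonneg fun g _ => sq_nonneg _).1 hzero g hg
    rw [sq_eq_zero_iff, norm_eq_zero] at this
    rw [this, Complex.zero_re]
  have hne : (χ : Spor.M22 → ℂ) ≠ fun _ => 1 := fun h1' => by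
    have := congrFun h1' 1
    rw [hd] at this
    norm_num at this
  have hzs := congrArg Complex.re (Char.irr_sum_eq_zero χ.2 hne)
  rw [Complex.re_sum, Complex.zero_re, ← sum_sdiff (subset_univ T), sum_eq_zero hvan, zero_add,
    hTsum] at hzs
  simp only [hU, hd, hr5, hr7, hr11, Complex.natCast_re] at hzs
  have e5 : S5 = 4 := by nlinarith
  have e7 : S7 = 6 := by nlinarith
  have e11 : S11 = 10 := by nlinarith
  subst e5 e7 e11
  refine no_sum_384 a b c ?_ ?_ ?_ ?_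
  · have : ((((5 : ℤ) * a - 384) ^ 2 : ℤ) : ℝ) ≤ ((4 * 4 : ℤ) : ℝ) := by push_cast; linarith
    exact_mod_cast this
  · have : ((((7 : ℤ) * b - 384) ^ 2 : ℤ) : ℝ) ≤ ((6 * 6 : ℤ) : ℝ) := by push_cast; linarith
    exact_mod_cast this
  · have : ((((11 : ℤ) * c - 384) ^ 2 : ℤ) : ℝ) ≤ ((10 * 10 : ℤ) : ℝ) := by push_cast; linarith
    exact_mod_cast this
  · norm_num at hzs
    have : (((384 : ℤ) + 22176 * (5 * a - 384) + 21120 * (7 * b - 384) + 8064 * (11 * c - 384) : ℤ) : ℝ)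
        = ((0 : ℤ) : ℝ) := by push_cast; linarith
    exact_mod_cast this

theorem factorization_two_m24 : (244823040 : ℕ).factorization 2 = 10 := by
  rw [show (244823040 : ℕ) = 2 ^ 10 * 239085 from rfl,
    Nat.factorization_mul (by norm_num) (by norm_num), Finsupp.add_apply,
    Nat.Prime.factorization_pow Nat.prime_two, Finsupp.single_eq_same,
    Nat.factorization_eq_zero_of_not_dvd (by norm_num)]

theorem m24_no_defect_zero (χ : IrrCharacter Cfsg.M24) :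
    ¬ 2 ^ (Nat.card Cfsg.M24).factorization 2 ∣ charDegree (χ : Cfsg.M24 → ℂ) := by
  classical
  haveI := Fintype.ofFinite Cfsg.M24
  have ho : Nat.card Cfsg.M24 = 244823040 := Golay.card_M24
  rw [ho, factorization_two_m24]
  intro h
  obtain ⟨m, hd, hdvd, hle⟩ := degree_cases χ.2 ho h
  have hm : m < 16 := by
    by_contra hm
    have : (2 ^ 10 * 16) ^ 2 ≤ (2 ^ 10 * m) ^ 2 := Nat.pow_le_pow_left (by omega) 2
    omega
  have hmem := m24_degrees m hm hdvd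
  generalize 2 ^ 10 * m = d at hd hmem
  have h1 := m24_check_5 d hmem
  have h2 := m24_check_7 d hmem
  have h3 := m24_check_11 d hmem
  have h4 := m24_check_23 d hmem
  have hnb := norm_bound ho χ.2 hd m24Data (by decide) (fun D hD => by
    simp only [m24Data, List.mem_cons, List.not_mem_nil, or_false] at hD
    rcases hD with rfl | rfl | rfl | rfl
    exacts [h1, h2, h3, h4])
  simp only [m24Data, List.map_cons, List.map_nil, List.sum_cons, List.sum_nil,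
    PrimeDatum.bound] at hnb
  simp only [List.mem_cons, List.not_mem_nil, or_false] at hmem
  rcases hmem with rfl | rfl | rfl | rfl | rfl | rfl | rfl <;> norm_num at hnb

end Cfsg.Agent.BlockOne
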