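import Cfsg.Agent.BlockOne.Criterion
import Cfsg.Agent.BlockOne.OctadInvolution
import Cfsg.Agent.BlockOne.FreeInvolution
import Cfsg.Agent.BlockOne.MathieuDefectZero

/-!
M22 and M24 have a single 2-block.
-/

set_option autoImplicit false

namespace Cfsg.Agent.BlockOne

open Cfsg Cfsg.Agent.Golay
open scoped Pointwise

theorem mem_centralizer_zpowers_iff {G : Type*} [Group G] {z c : G} :
    c ∈ Subgroup.centralizer ((Subgroup.zpowers z : Subgroup G) : Set G) ↔ c * z = z * c := by
  constructor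
  · exact fun h => (h z (Subgroup.mem_zpowers z)).symm
  · intro h y hy
    obtain ⟨k, rfl⟩ := Subgroup.mem_zpowers_iff.1 hy
    exact (Commute.zpow_left (show Commute z c from h.symm) k).eq

/-- An involution fixing an octad has a centraliser with one block, in any group given by fixed
base points. -/
theorem local_of_octad {M : Ideal AlgInt} (hM : IsPModular 2 M)
    {H : Subgroup (Equiv.Perm GolayPt)} {nf : ℕ}
    (hH : ∀ g, g ∈ H ↔ g ∈ Cfsg.M24 ∧ ∀ j < nf, g (basePt j) = basePt j) (z : H)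
    (hz : orderOf z = 2) (hfix : 7 ≤ (fixSet (z : Equiv.Perm GolayPt)).card)
    (ξ η : IrrCharacter (Subgroup.centralizer ((Subgroup.zpowers z : Subgroup H) : Set H))) :
    SameBlock M ξ.1 η.1 := by
  have h1 : (z : Equiv.Perm GolayPt) ≠ 1 := fun h => by
    rw [OneMemClass.coe_eq_one.1 h, orderOf_one] at hz
    exact absurd hz (by norm_num)
  set t : Equiv.Perm GolayPt := z.1 with ht
  obtain ⟨ho, htk⟩ := fixSet_octad_of_order_two ((hH _).1 z.2).1 h1 hfix
  set o := fixSet t with ho'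
  have hsub : M24Geo.octKer o ≤ H := fun k hk => (hH k).2 ⟨(M24Geo.mem_octKer.1 hk).1,
    fun j hj => (M24Geo.mem_octKer.1 hk).2 _ (mem_fixSet.2 (((hH _).1 z.2).2 j hj))⟩
  have hstab : ∀ c : H, c * z = z * c → (c : Equiv.Perm GolayPt) • o = o := by
    intro c hc
    have hc' : (c : Equiv.Perm GolayPt) * t = t * c := congrArg Subtype.val hc
    refine Finset.eq_of_subset_of_card_le (fun x hx => ?_) (Finset.card_smul_finset _ o).ge
    obtain ⟨y, hy, rfl⟩ := Finset.mem_smul_finset.1 hx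
    rw [ho', mem_fixSet, Equiv.Perm.smul_def, ← Equiv.Perm.mul_apply, ← hc',
      Equiv.Perm.mul_apply, mem_fixSet.1 hy]
  refine sameBlock_of_constrained hM (Q := (M24Geo.octKer o).subgroupOf H)
    ((octKer_isPGroup ho).of_equiv (Subgroup.subgroupOfEquivOfLe hsub).symm) (fun k hk => ?_)
    (fun c hc k hk => ?_) (fun c hc hcomm => ?_) ξ η
  · rw [mem_centralizer_zpowers_iff]
    exact Subtype.ext (octKer_comm ho hk htk)
  · rw [mem_centralizer_zpowers_iff] at hc
    have := M24Geo.octKer_conj ((hH _).1 c.2).1 hk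
    rwa [hstab c hc] at this
  · rw [mem_centralizer_zpowers_iff] at hc
    refine mem_octKer_of_commute ho ((hH _).1 c.2).1 (hstab c hc) fun k hk => ?_
    exact congrArg Subtype.val (hcomm ⟨k, hsub hk⟩ hk)

theorem two_fixed_cases {t : Equiv.Perm GolayPt} (ht : t ∈ Cfsg.M24) (h2 : orderOf t = 2) :
    7 ≤ (fixSet t).card ∨ ∀ p, t p ≠ p := by
  have hcard : ∀ (h : Equiv.Perm GolayPt) {r : ℕ}, M24.GoodTab r = true →
      t = h * M24.elemOf r * h⁻¹ → (fixSet t).card = M24.fixCount r := by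
    intro h r hr e
    rw [fixSet, e, M24.fix_conj, M24.fixCount_eq hr]
  obtain ⟨h, -, e | e⟩ := M24.order_two_cases ht h2
  · left
    rw [hcard h (M24.reps_good _ (by simp)) e, M24.rep_fix.2.2.1]
    norm_num
  · right
    intro p hp
    have h0 := hcard h (M24.reps_good _ (by simp)) e
    rw [M24.rep_fix.2.2.2, Finset.card_eq_zero] at h0
    exact Finset.notMem_empty p (h0 ▸ mem_fixSet.2 hp)

/-- A fixed-point-free involution of M24 has a centraliser with one block. -/
theorem local_of_free {M : Ideal AlgInt} (hM : IsPModular 2 M) (z : Cfsg.M24)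
    (hz : orderOf z = 2) (hfree : ∀ p, (z : Equiv.Perm GolayPt) p ≠ p)
    (ξ η : IrrCharacter
      (Subgroup.centralizer ((Subgroup.zpowers z : Subgroup Cfsg.M24) : Set Cfsg.M24))) :
    SameBlock M ξ.1 η.1 := by
  obtain ⟨h, hh, e⟩ := M24.conj_two_fix0 z.2 (by rw [Subgroup.orderOf_coe]; exact hz) hfree
  let e' : Equiv.Perm GolayPt ≃* Equiv.Perm GolayPt := MulAut.conj h
  set Q : Subgroup (Equiv.Perm GolayPt) := coreSub.map (MulAut.conj h).toMonoidHom with hQ
  have hQM : Q ≤ Cfsg.M24 := by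
    rintro _ ⟨q, hq, rfl⟩
    exact mul_mem (mul_mem hh (M24.mem_centTwo.1 (core_le_centTwo hq)).1) (inv_mem hh)
  have hback : ∀ c : Cfsg.M24, c * z = z * c →
      h⁻¹ * (c : Equiv.Perm GolayPt) * h ∈ M24.centTwo := by
    intro c hc
    have hc' : (c : Equiv.Perm GolayPt) * z = z * c := congrArg Subtype.val hc
    refine M24.mem_centTwo.2 ⟨mul_mem (mul_mem (inv_mem hh) c.2) hh, ?_⟩
    rw [show M24.elemOf M24.ord2Fix0 = h⁻¹ * (z : Equiv.Perm GolayPt) * h by rw [e]; group,
      show h⁻¹ * (c : Equiv.Perm GolayPt) * h * (h⁻¹ * (z : Equiv.Perm GolayPt) * h) =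
        h⁻¹ * ((c : Equiv.Perm GolayPt) * z) * h by group, hc']
    group
  refine sameBlock_of_constrained hM (Q := Q.subgroupOf Cfsg.M24)
    (((core_isPGroup.of_equiv
      (coreSub.equivMapOfInjective _ (MulAut.conj h).injective))).of_equiv
      (Subgroup.subgroupOfEquivOfLe hQM).symm) (fun k hk => ?_)
    (fun c hc k hk => ?_) (fun c hc hcomm => ?_) ξ η
  · rw [mem_centralizer_zpowers_iff]
    obtain ⟨q, hq, hqk⟩ := hk
    refine Subtype.ext ?_
    have hqc := (M24.mem_centTwo.1 (core_le_centTwo hq)).2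
    have hk' : (k : Equiv.Perm GolayPt) = h * q * h⁻¹ := hqk.symm
    show (k : Equiv.Perm GolayPt) * z = z * k
    rw [e, hk', show h * q * h⁻¹ * (h * M24.elemOf M24.ord2Fix0 * h⁻¹) =
      h * (q * M24.elemOf M24.ord2Fix0) * h⁻¹ by group, hqc]
    group
  · rw [mem_centralizer_zpowers_iff] at hc
    obtain ⟨q, hq, hqk⟩ := hk
    have hk' : (k : Equiv.Perm GolayPt) = h * q * h⁻¹ := hqk.symm
    refine ⟨_, core_normal (hback c hc) q hq, ?_⟩
    show h * (h⁻¹ * (c : Equiv.Perm GolayPt) * h * q * (h⁻¹ * (c : Equiv.Perm GolayPt) * h)⁻¹) * h⁻¹ = _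
    simp only [Subgroup.coe_subtype, Subgroup.coe_mul, Subgroup.coe_inv, hk']
    group
  · rw [mem_centralizer_zpowers_iff] at hc
    refine ⟨_, core_self_centralizing (hback c hc) (fun q hq => ?_), ?_⟩
    · have hm : h * q * h⁻¹ ∈ Q := ⟨q, hq, rfl⟩
      have := congrArg Subtype.val (hcomm ⟨_, hQM hm⟩ hm)
      simp only [Subgroup.coe_mul] at this
      rw [show q * (h⁻¹ * (c : Equiv.Perm GolayPt) * h) =
        h⁻¹ * (h * q * h⁻¹ * c) * h by group, this]
      group
    · show h * (h⁻¹ * (c : Equiv.Perm GolayPt) * h) * h⁻¹ = _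
      simp only [Subgroup.coe_subtype]
      group

theorem m22_single_block {M : Ideal AlgInt} (hM : IsPModular 2 M)
    (χ ψ : IrrCharacter Spor.M22) : SameBlock M χ.1 ψ.1 := by
  refine sameBlock_of_local hM (fun z hz => local_of_octad hM mem_M22_base z hz ?_)
    m22_no_defect_zero χ ψ
  refine (two_fixed_cases ((mem_M22_base _).1 z.2).1
    (by rw [Subgroup.orderOf_coe]; exact hz)).resolve_right fun h => ?_
  exact h _ (((mem_M22_base _).1 z.2).2 0 (by norm_num))

theorem m24_single_block {M : Ideal AlgInt} (hM : IsPModular 2 M)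
    (χ ψ : IrrCharacter Cfsg.M24) : SameBlock M χ.1 ψ.1 := by
  refine sameBlock_of_local hM (fun z hz => ?_) m24_no_defect_zero χ ψ
  rcases two_fixed_cases z.2 (by rw [Subgroup.orderOf_coe]; exact hz) with h | h
  · exact local_of_octad hM mem_M24_base z hz h
  · exact local_of_free hM z hz h

end Cfsg.Agent.BlockOne
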