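import Cfsg.Agent.BlockOne.NormScan
import Cfsg.Agent.Golay.MathieuSimple

/-!
Elements of prime order of M22 and M24 with the orders of their centralisers.
-/

set_option autoImplicit false
set_option Elab.async false

namespace Cfsg.Agent.BlockOne

open Cfsg Cfsg.Agent.Golay Cfsg.Agent.M24

/-- The test for a power being trivial, on the base. -/
def powTest' (X k : ℕ) : Bool := allBase fun i => Nat.beq (powBase (papp X) k i) i

theorem powTest'_iff {X : ℕ} {x : Equiv.Perm GolayPt} (hx : Rep X x) (hxm : x ∈ Cfsg.M24) (k : ℕ) :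
    powTest' X k = true ↔ x ^ k = 1 := by
  rw [powTest', allBase_iff]
  constructor
  · intro h
    refine eq_of_base (pow_mem hxm k) (one_mem _) fun j hj => ptIdx_injective ?_
    have := Nat.eq_of_beq_eq_true (h j hj)
    rwa [← ptIdx_basePt j hj, ← rep_pow_apply hx] at this
  · intro h j hj
    rw [← ptIdx_basePt j hj, ← rep_pow_apply hx, h]
    exact Nat.beq_refl _

/-- An element of prime order with its centraliser counted, in a group given by fixed base
points. -/
theorem exists_elem_of_scan {H : Subgroup (Equiv.Perm GolayPt)} {nf : ℕ} (hnf : nf ≤ 7)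
    (hH : ∀ g, g ∈ H ↔ g ∈ Cfsg.M24 ∧ ∀ j < nf, g (basePt j) = basePt j) {X p C : ℕ} (hp : p.Prime)
    (hX : (GoodTab X && ((List.range nf).all fun j => Nat.beq (papp X (basePos j)) (basePos j)) &&
      powTest' X p && !powTest' X 1) = true)
    (hlen : (scan (okN nf [1] X) (fullN nf [1] X)).length = C) :
    ∃ x : H, orderOf x = p ∧ Nat.card (Subgroup.centralizer ({x} : Set H)) = C := by
  simp only [Bool.and_eq_true, List.all_eq_true, List.mem_range, Nat.beq_eq,
    Bool.not_eq_true'] at hX
  obtain ⟨⟨⟨hgood, hfix⟩, hpow⟩, hne⟩ := hX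
  obtain ⟨hm, hr⟩ := elemOf_spec hgood
  have hmem : elemOf X ∈ H := (hH _).2 ⟨hm, fun j hj => ptIdx_injective (by
    rw [hr, ptIdx_basePt j (by omega), hfix j hj])⟩
  refine ⟨⟨elemOf X, hmem⟩, ?_, ?_⟩
  · have : Fact p.Prime := ⟨hp⟩
    rw [Subgroup.orderOf_mk]
    refine orderOf_eq_prime ((powTest'_iff hr hm p).1 hpow) fun h1 => ?_
    rw [(powTest'_iff hr hm 1).2 (by rw [pow_one]; exact h1)] at hne
    exact Bool.noConfusion hne
  · rw [← hlen, ← card_norm hgood hnf]
    refine Nat.card_congr
      { toFun := fun g => ⟨g.1.1, ((hH _).1 g.1.2).1, ((hH _).1 g.1.2).2, 1, by simp, by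
          rw [pow_one]
          exact congrArg Subtype.val (Subgroup.mem_centralizer_singleton_iff.1 g.2)⟩
        invFun := fun g => ⟨⟨g.1, (hH _).2 ⟨g.2.1, g.2.2.1⟩⟩, Subgroup.mem_centralizer_singleton_iff.2
          (Subtype.ext (by
            obtain ⟨k, hk, e⟩ := g.2.2.2
            rw [List.mem_singleton] at hk
            subst hk
            rwa [pow_one] at e))⟩
        left_inv := fun _ => rfl
        right_inv := fun _ => rfl }

theorem mem_M22_base (g : Equiv.Perm GolayPt) :
    g ∈ Spor.M22 ↔ g ∈ Cfsg.M24 ∧ ∀ j < 2, g (basePt j) = basePt j := by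
  have h0 : basePt 0 = none ∧ basePt 1 = some 0 := by decide +kernel
  rw [mem_M22_iff]
  refine and_congr_right fun _ => ⟨fun h j hj => ?_, fun h => ⟨?_, ?_⟩⟩
  · interval_cases j
    · rw [h0.1]; exact h.1
    · rw [h0.2]; exact h.2
  · have := h 0 (by norm_num); rwa [h0.1] at this
  · have := h 1 (by norm_num); rwa [h0.2] at this

theorem mem_M24_base (g : Equiv.Perm GolayPt) :
    g ∈ Cfsg.M24 ↔ g ∈ Cfsg.M24 ∧ ∀ j < 0, g (basePt j) = basePt j :=
  ⟨fun h => ⟨h, fun j hj => absurd hj (Nat.not_lt_zero j)⟩, fun h => h.1⟩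

theorem m22_five : ∃ x : Spor.M22, orderOf x = 5 ∧
    Nat.card (Subgroup.centralizer ({x} : Set Spor.M22)) = 5 :=
  exists_elem_of_scan (X := 977028086545931980587464296507804736) (by norm_num) mem_M22_base (by norm_num)
    (by decide +kernel) (by decide +kernel)

theorem m22_seven : ∃ x : Spor.M22, orderOf x = 7 ∧
    Nat.card (Subgroup.centralizer ({x} : Set Spor.M22)) = 7 :=
  exists_elem_of_scan (X := 957103557528947474068280498729552960) (by norm_num) mem_M22_base (by norm_num)
    (by decide +kernel) (by decide +kernel)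

theorem m22_eleven : ∃ x : Spor.M22, orderOf x = 11 ∧
    Nat.card (Subgroup.centralizer ({x} : Set Spor.M22)) = 11 :=
  exists_elem_of_scan (X := 960846990167299326063180503135390784) (by norm_num) mem_M22_base (by norm_num)
    (by decide +kernel) (by decide +kernel)

theorem m24_five : ∃ x : Cfsg.M24, orderOf x = 5 ∧
    Nat.card (Subgroup.centralizer ({x} : Set Cfsg.M24)) = 60 :=
  exists_elem_of_scan (X := 13820452402784384443408407715351617) (by norm_num) mem_M24_base (by norm_num)
    (by decide +kernel) (by decide +kernel)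

theorem m24_seven : ∃ x : Cfsg.M24, orderOf x = 7 ∧
    Nat.card (Subgroup.centralizer ({x} : Set Cfsg.M24)) = 42 :=
  exists_elem_of_scan (X := 17495608181065864749045225959361601) (by norm_num) mem_M24_base (by norm_num)
    (by decide +kernel) (by decide +kernel)

theorem m24_eleven : ∃ x : Cfsg.M24, orderOf x = 11 ∧
    Nat.card (Subgroup.centralizer ({x} : Set Cfsg.M24)) = 11 :=
  exists_elem_of_scan (X := 23777822075443935335748619157572673) (by norm_num) mem_M24_base (by norm_num)
    (by decide +kernel) (by decide +kernel)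

theorem m24_twentyThree : ∃ x : Cfsg.M24, orderOf x = 23 ∧
    Nat.card (Subgroup.centralizer ({x} : Set Cfsg.M24)) = 23 :=
  exists_elem_of_scan (X := 17229419696569591296637233867754561) (by norm_num) mem_M24_base (by norm_num)
    (by decide +kernel) (by decide +kernel)

end Cfsg.Agent.BlockOne
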