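import Cfsg.Agent.BlockOne.NormBound
import Cfsg.Agent.BlockOne.Reps

/-!
M22 and M24 have no irreducible character of 2-defect zero.
-/

set_option autoImplicit false

namespace Cfsg.Agent.BlockOne

open Cfsg Finset
open scoped ComplexConjugate

/-- The degree and what is known about an element of prime order. -/
structure PrimeDatum (G : Type*) [Group G] where
  /-- The prime. -/
  p : ℕ
  /-- The order of the centraliser. -/
  C : ℕ
  /-- The number of Sylow subgroups. -/
  n : ℕ
  /-- A divisor of the values. -/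
  q : ℕ
  prime : p.Prime
  exists_elem : ∃ x : G, orderOf x = p ∧ Nat.card (Subgroup.centralizer ({x} : Set G)) = C

namespace PrimeDatum

variable {G : Type*} [Group G]

/-- The arithmetic conditions on a datum. -/
def OK (D : PrimeDatum G) (o d : ℕ) : Prop :=
  Nat.Coprime D.q D.p ∧ D.q ∣ d ∧ D.q ∣ d / Nat.gcd (o / D.C) d ∧ o % D.p ^ 2 ≠ 0 ∧
    ∀ h ∈ Nat.divisors (D.p - 1), o % (D.C * h) = 0 → o / (D.C * h) % D.p = 1 →
      o / (D.C * h) = D.n

/-- The lower bound contributed by a datum. -/
def bound (D : PrimeDatum G) (d : ℕ) : ℕ :=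
  D.n * (D.q ^ 2 * ((d / D.q % D.p) * (D.p - d / D.q % D.p)))

theorem centralizer_pow_eq [Finite G] {p : ℕ} (hp : p.Prime) {x : G} (hx : orderOf x = p) {i : ℕ}
    (hi : 0 < i) (hip : i < p) :
    Subgroup.centralizer ({x ^ i} : Set G) = Subgroup.centralizer ({x} : Set G) := by
  have hcop : Nat.Coprime i p :=
    Nat.coprime_comm.1 (hp.coprime_iff_not_dvd.2 fun h => absurd (Nat.le_of_dvd hi h) (by omega))
  obtain ⟨k, hk⟩ : ∃ k : ℕ, (x ^ i) ^ k = x := by
    have hmem : x ∈ Subgroup.zpowers (x ^ i) := by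
      rw [show Subgroup.zpowers (x ^ i) = Subgroup.zpowers x from
        Subgroup.eq_of_le_of_card_ge (Subgroup.zpowers_le.2 (pow_mem (Subgroup.mem_zpowers x) i))
          (by rw [Nat.card_zpowers, Nat.card_zpowers, orderOf_pow' x hi.ne', hx,
            Nat.coprime_comm.1 hcop, Nat.div_one])]
      exact Subgroup.mem_zpowers x
    exact (Submonoid.mem_powers_iff _ _).mp
      ((isOfFinOrder_of_finite _).mem_powers_iff_mem_zpowers.mpr hmem)
  ext y
  simp only [Subgroup.mem_centralizer_singleton_iff]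
  constructor
  · intro h
    have : Commute y ((x ^ i) ^ k) := Commute.pow_right h k
    rw [hk] at this
    exact this.eq
  · intro h
    exact (Commute.pow_right (show Commute y x from h) i).eq

/-- The square sum over the elements of order `p` is at least the bound; with equality data also
the character sum over them. -/
theorem sum_facts [Fintype G] [DecidableEq G] (D : PrimeDatum G) {o d : ℕ} (ho : Nat.card G = o)
    (hok : D.OK o d) {χ : G → ℂ} (hχ : IsIrrCharacter G χ) (hd : χ 1 = d) :
    ∃ (S : ℝ) (m : ℕ),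
      (∑ g ∈ univ.filter (fun g : G => orderOf g = D.p), ‖χ g‖ ^ 2) = (D.n : ℝ) * S ∧
      ((D.q ^ 2 * ((d / D.q % D.p) * (D.p - d / D.q % D.p)) : ℕ) : ℝ) ≤ S ∧
      ((D.p : ℝ) * m - d) ^ 2 ≤ ((D.p - 1 : ℕ) : ℝ) * S ∧
      (∑ g ∈ univ.filter (fun g : G => orderOf g = D.p), (χ g).re) =
        (D.n : ℝ) * ((D.p : ℝ) * m - d) := by
  obtain ⟨hq, hqd, hqv, hp2, hn⟩ := hok
  obtain ⟨x, hx, hC⟩ := D.exists_elem
  have : Fact D.p.Prime := ⟨D.prime⟩
  have hp2' : ¬ D.p ^ 2 ∣ Nat.card G := fun h => hp2 (Nat.mod_eq_zero_of_dvd (ho ▸ h))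
  have hchar := Char.isCharacter_of_irr hχ
  have hcl := Char.isCharacter_isClassFunction hchar
  obtain ⟨m, hm⟩ := sum_powers_eq hchar D.prime hx
  refine ⟨∑ i ∈ (range D.p).erase 0, ‖χ (x ^ i)‖ ^ 2, m,
    sum_orderOf_eq_mul hx hp2' ho hC hn (fun g => ‖χ g‖ ^ 2)
      (fun g y => by simp only [hcl y g]), ?_, ?_, ?_⟩
  · refine cyclic_bound hchar D.prime hd hx hq hqd fun i hi hip => ?_
    refine exists_value_eq_mul hχ hd (C := D.C) ?_ (ho.symm ▸ hqv)
    rw [centralizer_pow_eq D.prime hx hi hip, hC]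
  all_goals
    have hs : ∑ i ∈ (range D.p).erase 0, (χ (x ^ i)).re = (D.p : ℝ) * m - d := by
      have h := add_sum_erase (range D.p) (fun i => χ (x ^ i)) (mem_range.2 D.prime.pos)
      simp only [pow_zero, hd, hm] at h
      have h' := congrArg Complex.re h
      simp only [Complex.add_re, Complex.natCast_re, Complex.re_sum, Complex.mul_re,
        Complex.natCast_im, mul_zero, sub_zero] at h'
      linarith
  · rw [← hs]
    refine (sq_sum_le_card_mul_sum_sq).trans ?_
    rw [card_erase_of_mem (mem_range.2 D.prime.pos), card_range]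
    refine mul_le_mul_of_nonneg_left (sum_le_sum fun i _ => ?_) (Nat.cast_nonneg _)
    rw [← Complex.normSq_eq_norm_sq, Complex.normSq_apply, sq]
    nlinarith [mul_self_nonneg (χ (x ^ i)).im]
  · rw [← hs]
    exact sum_orderOf_eq_mul hx hp2' ho hC hn (fun g => (χ g).re)
      (fun g y => by simp only [hcl y g])

end PrimeDatum

/-- The inequality from a list of data with distinct primes. -/
theorem norm_bound {G : Type*} [Group G] [Fintype G] [DecidableEq G] {o d : ℕ}
    (ho : Nat.card G = o) {χ : G → ℂ} (hχ : IsIrrCharacter G χ) (hd : χ 1 = d)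
    (L : List (PrimeDatum G)) (hL : (L.map PrimeDatum.p).Nodup) (hok : ∀ D ∈ L, D.OK o d) :
    d ^ 2 + (L.map fun D => D.bound d).sum ≤ o := by
  have main : ∀ L : List (PrimeDatum G), (L.map PrimeDatum.p).Nodup → (∀ D ∈ L, D.OK o d) →
      (((L.map fun D => D.bound d).sum : ℕ) : ℝ) ≤
        ∑ g ∈ univ.filter (fun g : G => orderOf g ∈ L.map PrimeDatum.p), ‖χ g‖ ^ 2 := by
    intro L
    induction L with
    | nil => intros; simp
    | cons D L ih =>
      intro hnd hok
      rw [List.map_cons, List.nodup_cons] at hnd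
      obtain ⟨S, m, hS, hb, -, -⟩ := D.sum_facts ho (hok D List.mem_cons_self) hχ hd
      have hsplit : univ.filter (fun g : G => orderOf g ∈ (D :: L).map PrimeDatum.p) =
          univ.filter (fun g : G => orderOf g = D.p) ∪
            univ.filter (fun g : G => orderOf g ∈ L.map PrimeDatum.p) := by
        ext g; simp
      rw [hsplit, sum_union (disjoint_filter.2 fun g _ h1 h2 => hnd.1 (by rw [← h1]; exact h2)), hS,
        List.map_cons, List.sum_cons, Nat.cast_add]
      refine add_le_add ?_ (ih hnd.2 fun D' hD' => hok D' (List.mem_cons_of_mem _ hD'))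
      rw [PrimeDatum.bound, Nat.cast_mul]
      exact mul_le_mul_of_nonneg_left hb (Nat.cast_nonneg _)
  have h1 : (1 : G) ∉ univ.filter (fun g : G => orderOf g ∈ L.map PrimeDatum.p) := by
    simp only [mem_filter, mem_univ, true_and, orderOf_one, List.mem_map, not_exists, not_and]
    exact fun D _ e => D.prime.ne_one e
  have hsum := sum_le_sum_of_subset_of_nonneg (subset_univ
    (insert (1 : G) (univ.filter (fun g : G => orderOf g ∈ L.map PrimeDatum.p))))
    (fun g _ _ => sq_nonneg ‖χ g‖)
  rw [sum_insert h1, sum_norm_sq hχ, hd, Complex.norm_natCast, ho] at hsum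
  have h2 := main L hL hok
  have : ((d ^ 2 + (L.map fun D => D.bound d).sum : ℕ) : ℝ) ≤ (o : ℝ) := by
    rw [Nat.cast_add, Nat.cast_pow]
    linarith
  exact_mod_cast this

end Cfsg.Agent.BlockOne
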