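import Cfsg.Agent.BlockOne.CyclicBound
import Cfsg.Agent.Char.Virtual
import Cfsg.Agent.Char.Integrality
import Cfsg.Agent.Char.DefectZero
import Mathlib.GroupTheory.SpecificGroups.Cyclic
import Mathlib.NumberTheory.Divisors

/-!
The norm of an irreducible character, summed over the elements of some prime orders: no character
of defect zero can exist when these parts exceed the group order.
-/

set_option autoImplicit false
set_option linter.style.haveILetI false

namespace Cfsg.Agent.BlockOne

open Cfsg Finset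
open scoped ComplexConjugate Pointwise

variable {G : Type*} [Group G]

theorem sum_norm_sq [Fintype G] {χ : G → ℂ} (hχ : IsIrrCharacter G χ) :
    ∑ g : G, ‖χ g‖ ^ 2 = (Nat.card G : ℝ) := by
  have h := Char.sum_mul_conj_eq_card_mul_classInner χ χ
  rw [Char.classInner_irr_self hχ, mul_one] at h
  rw [← Complex.ofReal_inj]
  push_cast
  rw [← h]
  exact sum_congr rfl fun g _ => (Complex.mul_conj' _).symm

/-- The order of the normaliser of a group of prime order is that of the centraliser times a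
divisor of `p - 1`. -/
theorem card_normalizer_dvd [Finite G] {p : ℕ} [Fact p.Prime] {x : G} (hx : orderOf x = p) :
    ∃ h : ℕ, h ∣ p - 1 ∧
      Nat.card (Subgroup.normalizer ((Subgroup.zpowers x : Subgroup G) : Set G)) =
        Nat.card (Subgroup.centralizer ({x} : Set G)) * h := by
  set P := Subgroup.zpowers x with hP
  have hPc : Nat.card P = p := by rw [hP, Nat.card_zpowers, hx]
  haveI : IsCyclic P := isCyclic_of_prime_card hPc
  refine ⟨Nat.card P.normalizerMonoidHom.range, ?_, ?_⟩
  · refine (Subgroup.card_subgroup_dvd_card _).trans (dvd_of_eq ?_)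
    rw [IsCyclic.card_mulAut, hPc, Nat.totient_prime Fact.out]
  · rw [← Subgroup.card_mul_index P.normalizerMonoidHom.ker, Subgroup.index_ker,
      Subgroup.normalizerMonoidHom_ker]
    congr 1
    rw [Nat.card_congr (Subgroup.subgroupOfEquivOfLe (Subgroup.centralizer_le_normalizer _)).toEquiv,
      hP, Subgroup.centralizer_eq_iInf]
    congr 2
    ext y
    simp only [Subgroup.mem_iInf, Subgroup.mem_centralizer_iff, Set.mem_singleton_iff, forall_eq,
      SetLike.mem_coe]
    exact ⟨fun h => h x (Subgroup.mem_zpowers x), fun h z hz => by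
      obtain ⟨k, rfl⟩ := Subgroup.mem_zpowers_iff.1 hz
      exact (Commute.zpow_left (show Commute x y from h) k).eq⟩

/-- Summing a class function over all elements of order `p`, when the Sylow `p`-subgroups have
order `p`. -/
theorem sum_orderOf_eq [Fintype G] [DecidableEq G] {p : ℕ} [hp : Fact p.Prime] {x : G}
    (hx : orderOf x = p) (hp2 : ¬ p ^ 2 ∣ Nat.card G) (f : G → ℝ)
    (hf : ∀ g y, f (g * y * g⁻¹) = f y) :
    (Nat.card (Subgroup.normalizer ((Subgroup.zpowers x : Subgroup G) : Set G)) : ℝ) *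
        (∑ g ∈ univ.filter (fun g => orderOf g = p), f g) =
      (Nat.card G : ℝ) * ∑ i ∈ (range p).erase 0, f (x ^ i) := by
  classical
  set N := Subgroup.normalizer ((Subgroup.zpowers x : Subgroup G) : Set G) with hN
  have hpc : ∀ y : G, orderOf y = p → ∃ c : G,
      (Subgroup.zpowers x).map (MulAut.conj c).toMonoidHom = Subgroup.zpowers y := by
    intro y hy
    have hfac : (Nat.card G).factorization p = 1 := by
      have hpos := hp.out.factorization_pos_of_dvd Nat.card_pos.ne' (hx ▸ orderOf_dvd_natCard x)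
      by_contra hne
      exact hp2 ((hp.out.pow_dvd_iff_le_factorization Nat.card_pos.ne').2 (by omega))
    let P : Sylow p G := Sylow.ofCard (Subgroup.zpowers x)
      (by rw [Nat.card_zpowers, hx, hfac, pow_one])
    let Q : Sylow p G := Sylow.ofCard (Subgroup.zpowers y)
      (by rw [Nat.card_zpowers, hy, hfac, pow_one])
    obtain ⟨c, hc⟩ := MulAction.exists_smul_eq G P Q
    exact ⟨c, congrArg Sylow.toSubgroup hc⟩
  set I := (range p).erase 0
  set U := univ.filter (fun g : G => orderOf g = p)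
  have hI : ∀ i ∈ I, orderOf (x ^ i) = p := by
    intro i hi
    rw [mem_erase, mem_range] at hi
    rw [orderOf_pow' x hi.1, hx, Nat.Coprime.gcd_eq_one, Nat.div_one]
    exact hp.out.coprime_iff_not_dvd.2 fun hd =>
      absurd (Nat.le_of_dvd (Nat.pos_of_ne_zero hi.1) hd) (by omega)
  have hmap : ∀ z ∈ (univ : Finset G) ×ˢ I, z.1 * x ^ z.2 * z.1⁻¹ ∈ U := by
    intro z hz
    rw [mem_product] at hz
    rw [mem_filter, ← MulAut.conj_apply, (MulAut.conj z.1).orderOf_eq]
    exact ⟨mem_univ _, hI _ hz.2⟩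
  have key := sum_fiberwise_of_maps_to hmap (fun z => f (z.1 * x ^ z.2 * z.1⁻¹))
  have hR : ∑ z ∈ (univ : Finset G) ×ˢ I, f (z.1 * x ^ z.2 * z.1⁻¹) =
      (Nat.card G : ℝ) * ∑ i ∈ I, f (x ^ i) := by
    rw [sum_product, sum_congr rfl fun g _ => sum_congr rfl fun i _ => hf g (x ^ i), sum_const,
      nsmul_eq_mul, card_univ, Nat.card_eq_fintype_card]
  rw [← hR, ← key, mul_sum]
  refine sum_congr rfl fun u hu => ?_
  have hu' : orderOf u = p := (mem_filter.1 hu).2
  rw [sum_congr rfl fun z hz => by rw [(mem_filter.1 hz).2], sum_const, nsmul_eq_mul]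
  congr 1
  norm_cast
  obtain ⟨c, hc⟩ := hpc u hu'
  -- the fibre is in bijection with the normaliser
  have hex : ∀ n : N, ∃ i ∈ I, (c * (n : G)) * x ^ i * (c * (n : G))⁻¹ = u := by
    intro n
    have hmem : u ∈ (Subgroup.zpowers x).map (MulAut.conj (c * (n : G))).toMonoidHom := by
      have hn : (Subgroup.zpowers x).map (MulAut.conj (n : G)).toMonoidHom = Subgroup.zpowers x :=
        Subgroup.mem_normalizer_iff_map_conj_eq.1 n.2
      have : (Subgroup.zpowers x).map (MulAut.conj (c * (n : G))).toMonoidHom =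
          ((Subgroup.zpowers x).map (MulAut.conj (n : G)).toMonoidHom).map
            (MulAut.conj c).toMonoidHom := by
        rw [Subgroup.map_map]
        congr 1
        ext y
        simp
      rw [this, hn, hc]
      exact Subgroup.mem_zpowers u
    obtain ⟨y, hy, rfl⟩ := hmem
    obtain ⟨i, hi⟩ := (Submonoid.mem_powers_iff _ _).mp
      ((isOfFinOrder_of_finite x).mem_powers_iff_mem_zpowers.mpr hy)
    refine ⟨i % p, mem_erase.2 ⟨fun h0 => ?_, mem_range.2 (Nat.mod_lt _ hp.out.pos)⟩, ?_⟩
    · have : y = 1 := by rw [← hi, ← pow_mod_orderOf, hx, h0, pow_zero]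
      rw [this, map_one, orderOf_one] at hu'
      exact hp.out.one_lt.ne hu'
    · rw [← hi]
      conv_rhs => rw [← pow_mod_orderOf, hx]
      rfl
  choose i hi hieq using hex
  rw [Nat.card_eq_fintype_card]
  refine card_bij (fun n _ => (c * (n : G), i n)) (fun n _ => ?_) (fun a _ b _ h => ?_)
    (fun z hz => ?_)
  · exact mem_filter.2 ⟨mem_product.2 ⟨mem_univ _, hi n⟩, hieq n⟩
  · exact Subtype.ext (mul_left_cancel (congrArg Prod.fst h))
  · obtain ⟨hz1, hz2⟩ := mem_filter.1 hz
    have hz2' : z.2 ∈ I := (mem_product.1 hz1).2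
    have hn : c⁻¹ * z.1 ∈ N := by
      rw [hN, Subgroup.mem_normalizer_iff_map_conj_eq]
      have h1 : (Subgroup.zpowers x).map (MulAut.conj z.1).toMonoidHom = Subgroup.zpowers u := by
        refine (Subgroup.eq_of_le_of_card_ge ?_ ?_).symm
        · rw [Subgroup.zpowers_le]
          exact ⟨x ^ z.2, Subgroup.pow_mem _ (Subgroup.mem_zpowers x) _, hz2⟩
        · rw [Subgroup.card_map_of_injective (MulAut.conj z.1).injective, Nat.card_zpowers,
            Nat.card_zpowers, hx, hu']
      calc (Subgroup.zpowers x).map (MulAut.conj (c⁻¹ * z.1)).toMonoidHom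
          = ((Subgroup.zpowers x).map (MulAut.conj z.1).toMonoidHom).map
              (MulAut.conj c⁻¹).toMonoidHom := by
            rw [Subgroup.map_map]; congr 1; ext y; simp
        _ = _ := by
            rw [h1, ← hc, Subgroup.map_map]
            convert Subgroup.map_id _
            ext y; simp [mul_assoc]
    refine ⟨⟨_, hn⟩, mem_univ _, Prod.ext (by simp) ?_⟩
    have h := hieq ⟨_, hn⟩
    simp only [mul_inv_cancel_left] at h
    rw [← hz2, mul_left_inj, mul_right_inj] at h
    have hi' := (mem_erase.1 (hi ⟨_, hn⟩)).2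
    exact pow_injOn_Iio_orderOf (Set.mem_Iio.2 (hx.symm ▸ mem_range.1 hi'))
      (Set.mem_Iio.2 (hx.symm ▸ mem_range.1 (mem_erase.1 hz2').2)) h

/-- The number of Sylow subgroups of prime order, from the centraliser. -/
theorem sum_orderOf_eq_mul [Fintype G] [DecidableEq G] {p C n o : ℕ} [hp : Fact p.Prime] {x : G}
    (hx : orderOf x = p) (hp2 : ¬ p ^ 2 ∣ Nat.card G) (ho : Nat.card G = o)
    (hC : Nat.card (Subgroup.centralizer ({x} : Set G)) = C)
    (hchk : ∀ h ∈ Nat.divisors (p - 1), o % (C * h) = 0 → o / (C * h) % p = 1 → o / (C * h) = n)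
    (f : G → ℝ) (hf : ∀ g y, f (g * y * g⁻¹) = f y) :
    (∑ g ∈ univ.filter (fun g => orderOf g = p), f g) =
      (n : ℝ) * ∑ i ∈ (range p).erase 0, f (x ^ i) := by
  obtain ⟨h, hh, hN⟩ := card_normalizer_dvd hx
  rw [hC] at hN
  have hkey := sum_orderOf_eq hx hp2 f hf
  rw [hN, ho] at hkey
  have hdvd : C * h ∣ o := ho ▸ hN ▸ Subgroup.card_subgroup_dvd_card _
  have hmul : (Subgroup.normalizer ((Subgroup.zpowers x : Subgroup G) : Set G)).index * (C * h)
      = o := by rw [← hN, ← ho]; exact Subgroup.index_mul_card _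
  have hfac : (Nat.card G).factorization p = 1 := by
    have hpos := hp.out.factorization_pos_of_dvd Nat.card_pos.ne' (hx ▸ orderOf_dvd_natCard x)
    by_contra hne
    exact hp2 ((hp.out.pow_dvd_iff_le_factorization Nat.card_pos.ne').2 (by omega))
  let P : Sylow p G := Sylow.ofCard (Subgroup.zpowers x)
    (by rw [Nat.card_zpowers, hx, hfac, pow_one])
  have hpos : 0 < C * h := hN ▸ Nat.card_pos
  have hidx : o / (C * h) = (Subgroup.normalizer ((Subgroup.zpowers x : Subgroup G) : Set G)).index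
    := by rw [← hmul, Nat.mul_div_cancel _ hpos]
  have hn := hchk h (Nat.mem_divisors.2 ⟨hh, (Nat.sub_pos_of_lt hp.out.one_lt).ne'⟩)
    (Nat.mod_eq_zero_of_dvd hdvd) (by
      rw [hidx, show (Subgroup.normalizer ((Subgroup.zpowers x : Subgroup G) : Set G)).index =
        Nat.card (Sylow p G) from (Sylow.card_eq_index_normalizer P).symm]
      exact Eq.trans (card_sylow_modEq_one p G) (Nat.mod_eq_of_lt hp.out.one_lt))
  have hne : ((C * h : ℕ) : ℝ) ≠ 0 := Nat.cast_ne_zero.2 hpos.ne'
  refine mul_left_cancel₀ hne ?_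
  rw [hkey, ← mul_assoc, ← Nat.cast_mul, ← hn, Nat.mul_div_cancel' hdvd]

/-- Divisibility of character values at an element, from the size of its class. -/
theorem exists_value_eq_mul [Finite G] {χ : G → ℂ} (hχ : IsIrrCharacter G χ) {d C q : ℕ}
    (hd : χ 1 = d) {y : G} (hC : Nat.card (Subgroup.centralizer ({y} : Set G)) = C)
    (hq : q ∣ d / Nat.gcd (Nat.card G / C) d) :
    ∃ t : ℂ, IsIntegral ℤ t ∧ χ y = q * t := by
  obtain ⟨k, ρ, hρ, rfl⟩ := hχ
  have hint := Char.isIntegral_classSize_mul_character_div ρ y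
  have hk : (Module.finrank ℂ (Fin k → ℂ) : ℂ) = d := by rw [← hd, ρ.char_one]
  have hidx : (Subgroup.centralizer ({y} : Set G)).index = Nat.card G / C := by
    rw [← hC, ← Subgroup.index_mul_card (Subgroup.centralizer ({y} : Set G)),
      Nat.mul_div_cancel _ Nat.card_pos]
  rw [hidx, hk] at hint
  set i := Nat.card G / C
  set ω : ℂ := (i : ℂ) * ρ.character y / (d : ℂ) with hω
  set g := Nat.gcd i d
  have hd0 : (d : ℂ) ≠ 0 := hd ▸ Char.irr_one_ne_zero ⟨k, ρ, hρ, rfl⟩
  have hg : 0 < g := Nat.gcd_pos_of_pos_right _ (Nat.pos_of_ne_zero (by exact_mod_cast hd0))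
  obtain ⟨a, ha⟩ : g ∣ i := Nat.gcd_dvd_left _ _
  obtain ⟨b, hb⟩ : g ∣ d := Nat.gcd_dvd_right _ _
  have hdb : d / g = b := by rw [hb, Nat.mul_div_cancel_left _ hg]
  rw [hdb] at hq
  obtain ⟨e, he⟩ := hq
  have hcop : IsCoprime (a : ℤ) (b : ℤ) := by
    have h1 := Nat.coprime_div_gcd_div_gcd (m := i) (n := d) hg
    rw [show i / g = a by rw [ha, Nat.mul_div_cancel_left _ hg], hdb] at h1
    exact Nat.isCoprime_iff_coprime.2 h1
  obtain ⟨u, v, huv⟩ := hcop
  refine ⟨(e : ℂ) * ((u : ℂ) * ω + (v : ℂ) * ρ.character y), ?_, ?_⟩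
  · exact (by simpa using isIntegral_algebraMap (R := ℤ) (A := ℂ) (x := (e : ℤ)) :
        IsIntegral ℤ (e : ℂ)).mul
      (((by simpa using isIntegral_algebraMap (R := ℤ) (A := ℂ) (x := u) :
          IsIntegral ℤ (u : ℂ)).mul hint).add
        ((by simpa using isIntegral_algebraMap (R := ℤ) (A := ℂ) (x := v) :
          IsIntegral ℤ (v : ℂ)).mul (Char.character_isIntegral ρ y)))
  · have hrel : (a : ℂ) * ρ.character y = (b : ℂ) * ω := by
      have hgC : (g : ℂ) ≠ 0 := Nat.cast_ne_zero.2 hg.ne'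
      refine mul_left_cancel₀ hgC ?_
      rw [← mul_assoc, ← mul_assoc, ← Nat.cast_mul, ← Nat.cast_mul, ← ha, ← hb, hω,
        mul_div_cancel₀ _ hd0]
    have huv' : (u : ℂ) * a + (v : ℂ) * b = 1 := by exact_mod_cast huv
    have hbe : (b : ℂ) = q * e := by exact_mod_cast he
    rw [← mul_assoc, ← hbe]
    linear_combination (-(ρ.character y)) * huv' + (u : ℂ) * hrel

end Cfsg.Agent.BlockOne
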