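import Cfsg.Agent.M24.Classes

/-!
Counting the elements of M24, fixing some initial base points, that conjugate a coded permutation
to one of its listed powers.
-/

set_option autoImplicit false

namespace Cfsg.Agent.BlockOne

open Cfsg Cfsg.Agent.Golay Cfsg.Agent.M24

/-- The property counted: `g` conjugates `x` to a listed power and fixes `nf` base points. -/
def NormPred (nf : ℕ) (ks : List ℕ) (x g : Equiv.Perm GolayPt) : Prop :=
  (∀ j < nf, g (basePt j) = basePt j) ∧ ∃ k ∈ ks, g * x = x ^ k * g

/-- The images of consecutive base points in a cycle of `X` are consistent with the power `k`. -/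
def chainOK (X k : ℕ) (im : List ℕ) : Bool :=
  (List.range 6).all fun j => !Nat.beq (papp X (basePos j)) (basePos (j + 1)) ||
    Nat.ble im.length (j + 1) || Nat.beq (im.getD (j + 1) 0) (powBase (papp X) k (im.getD j 0))

/-- The pruning test. -/
def okN (nf : ℕ) (ks : List ℕ) (X : ℕ) (im : List ℕ) : Bool :=
  ((List.range nf).all fun j => imgOK im j (Nat.beq (basePos j))) && ks.any fun k => chainOK X k im

/-- The power test on the base. -/
def powTest (X k : ℕ) (f : ℕ → ℕ) : Bool :=
  allBase fun i => Nat.beq (f (papp X i)) (powBase (papp X) k (f i))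

/-- The full test. -/
def fullN (nf : ℕ) (ks : List ℕ) (X : ℕ) (f : ℕ → ℕ) : Bool :=
  ((List.range nf).all fun j => Nat.beq (f (basePos j)) (basePos j)) &&
    ks.any fun k => powTest X k f

theorem rep_pow_apply {X : ℕ} {x : Equiv.Perm GolayPt} (hx : Rep X x) (k : ℕ) (p : GolayPt) :
    ptIdx ((x ^ k) p) = powBase (papp X) k (ptIdx p) := by
  induction k with
  | zero => rfl
  | succ k ih => rw [powBase, ← ih, pow_succ', Equiv.Perm.mul_apply, hx]

theorem powTest_iff {X k : ℕ} {x g : Equiv.Perm GolayPt} (hx : Rep X x) (hxm : x ∈ M24)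
    (hg : g ∈ M24) : powTest X k (posFun g) = true ↔ g * x = x ^ k * g := by
  rw [powTest, allBase_iff]
  constructor
  · intro h
    refine eq_of_base (mul_mem hg hxm) (mul_mem (pow_mem hxm k) hg) fun j hj =>
      ptIdx_injective ?_
    have := Nat.eq_of_beq_eq_true (h j hj)
    rw [← ptIdx_basePt j hj, ← hx, posFun_ptIdx, posFun_ptIdx, ← rep_pow_apply hx] at this
    exact this
  · intro h j hj
    rw [← ptIdx_basePt j hj, ← hx, posFun_ptIdx, posFun_ptIdx, ← rep_pow_apply hx,
      ← Equiv.Perm.mul_apply, h]
    exact Nat.beq_refl _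

theorem tests_norm {X : ℕ} {x : Equiv.Perm GolayPt} (hx : Rep X x) (hxm : x ∈ M24) {nf : ℕ}
    (hnf : nf ≤ 7) (ks : List ℕ) :
    ScanTests (NormPred nf ks x) (okN nf ks X) (fullN nf ks X) := by
  refine ⟨fun f f' h _ => ?_, fun g hg => ?_, fun g _ hp k _ => ?_⟩
  · rw [Bool.eq_iff_iff]
    simp only [fullN, powTest, Bool.and_eq_true, List.all_eq_true, List.any_eq_true,
      List.mem_range, allBase_iff]
    refine and_congr (forall₂_congr fun j hj => ?_) (exists_congr fun k =>
      and_congr_right fun _ => forall₂_congr fun j hj => ?_)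
    · rw [h _ (basePos_lt j (by omega))]
    · rw [h _ (hx.papp_lt (basePos_lt j hj)), h _ (basePos_lt j hj)]
  · simp only [fullN, Bool.and_eq_true, List.all_eq_true, List.any_eq_true, List.mem_range,
      powTest_iff hx hxm hg, Nat.beq_eq, NormPred]
    exact and_congr_left fun _ => forall₂_congr fun j hj =>
      (posFun_base_iff g (show j < 7 by omega) (show j < 7 by omega)).symm
  · obtain ⟨hfix, e, he, hge⟩ := hp
    simp only [okN, Bool.and_eq_true, List.all_eq_true, List.any_eq_true, List.mem_range]
    refine ⟨fun j hj => imgOK_baseImages _ _ _ _ ?_, e, he, ?_⟩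
    · rw [hfix j hj, ptIdx_basePt j (by omega)]
      exact Nat.beq_refl _
    simp only [chainOK, List.all_eq_true, List.mem_range, Bool.or_eq_true, Bool.not_eq_true',
      baseImages_length, Nat.ble_eq]
    intro j hj
    rcases Bool.eq_false_or_eq_true (Nat.beq (papp X (basePos j)) (basePos (j + 1))) with hb | hb
    swap
    · exact Or.inl (Or.inl hb)
    by_cases hlt : j + 1 < k
    · right
      rw [baseImages_getD g hlt, baseImages_getD g (show j < k by omega), Nat.beq_eq,
        ← rep_pow_apply hx, ← Equiv.Perm.mul_apply, ← hge, Equiv.Perm.mul_apply]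
      have e1 : x (basePt j) = basePt (j + 1) := ptIdx_injective (by
        rw [hx, ptIdx_basePt j (by omega), ptIdx_basePt _ (by omega), Nat.eq_of_beq_eq_true hb])
      rw [e1]
    · exact Or.inl (Or.inr (by omega))

/-- The count. -/
theorem card_norm {X : ℕ} (hX : GoodTab X = true) {nf : ℕ} (hnf : nf ≤ 7) (ks : List ℕ) :
    Nat.card {g : Equiv.Perm GolayPt // g ∈ M24 ∧ NormPred nf ks (elemOf X) g} =
      (scan (okN nf ks X) (fullN nf ks X)).length :=
  scan_card (tests_norm (elemOf_spec hX).2 (elemOf_spec hX).1 hnf ks)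

end Cfsg.Agent.BlockOne
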